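import Cfsg.Agent.Lib.Cusp.Adj
import Cfsg.Agent.Lib.CharDeg.FlagChar

/-!
# The permutation characters on flags as iterated parabolic inductions
-/

set_option autoImplicit false

namespace Cfsg.Lib.Cusp

open Module LinearMap Cfsg.Lib.GLC Cfsg.Lib.Char Cfsg.Lib.GLFlag Cfsg.Lib.Induce
open Submodule hiding fst snd
open Finset hiding range
open scoped ComplexConjugate BigOperators MatrixGroups

universe u

variable {F : Type u} [Field F] [Finite F] {V A C : Type u} [AddCommGroup V] [Module F V] [AddCommGroup A]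
  [Module F A] [AddCommGroup C] [Module F C] [Finite V] [Finite A] [Finite C]

variable (F) in
/-- The principal character in degree `a`. -/
noncomputable def hI (a : ℕ) : Ty F → ℂ := lift (n := a) fun _ => 1

variable (F) in
/-- The number of invariant flags. -/
noncomputable def fl : List ℕ → Ty F → ℂ
  | [] => hI F 0
  | a :: l => hall (hI F a) (fl l)

theorem sup_hI (a : ℕ) : Sup a (hI F a) := sup_lift

theorem sup_fl (l : List ℕ) : Sup l.sum (fl F l) := by
  induction l with
  | nil => exact sup_hI 0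
  | cons a l ih => exact (sup_hI a).hall ih

theorem hI_ty {f : End F V} (hf : IsUnit f) (a : ℕ) : hI F a (ty f) = if finrank F V = a then 1 else 0 := by
  split_ifs with h
  · let e := LinearEquiv.ofFinrankEq (R := F) V (Fin a → F) (by simpa)
    rw [ty_eq_iff.2 (sim_conj e f)]
    exact lift_ty isClassFunction_one ((sim_conj e f).isUnit_iff.1 hf).unit
  · exact by_contra fun e => h (sup_lift _ _ e).2

/-- The stabilizer of a filtration. -/
abbrev PW (W : ℕ → Submodule F V) := {g : (End F V)ˣ // ∀ j, ∀ v ∈ W j, g.1 v ∈ W j}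

noncomputable scoped instance instFintypePW (W : ℕ → Submodule F V) : Fintype (PW W) := Fintype.ofFinite _

omit [Finite F] in
theorem expect_pw (e : A ≃ₗ[F] V) (W : ℕ → Submodule F V) (π : Ty F → ℂ) :
    𝔼 g : PW fun j => (W j).comap e.toLinearMap, π (ty g.1.1) = 𝔼 g : PW W, π (ty g.1.1) :=
  Fintype.expect_equiv ((Units.mapEquiv (e.conjAlgEquiv F).toMulEquiv).toEquiv.subtypeEquiv fun g =>
    forall_congr' fun j => ⟨fun h v hv => h (e.symm v) (by simpa), fun h v hv => by simpa using h (e v) hv⟩)
    _ _ fun g => congrArg π (ty_eq_iff.2 (sim_conj e _))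

theorem ip_fl (l : List ℕ) {W : ℕ → Submodule F V} (h0 : W 0 = ⊥) (h1 : Monotone W)
    (h2 : ∀ j, finrank F (W (j + 1)) = finrank F (W j) + l.getD j 0) (h3 : finrank F V = l.sum) (π : Ty F → ℂ) :
    ip l.sum (fl F l) π = 𝔼 g : PW W, conj (π (ty g.1.1)) := by
  induction l generalizing V π with
  | nil =>
    haveI := finrank_zero_iff.1 h3
    haveI : Nonempty (PW W) := ⟨⟨1, fun _ _ h => h⟩⟩
    rw [expect_congr rfl (g := fun _ => conj (π (ty (1 : End F V)))) fun g _ => by
      rw [Subsingleton.elim g.1.1 1], Fintype.expect_const, ip_eq_of_finrank h3, Fintype.sum_subsingleton _ 1,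
      Nat.card_unique, fl, hI_ty isUnit_one, if_pos (show finrank F V = 0 from h3)]
    simp
  | cons a l ih =>
    obtain ⟨e, he⟩ := exists_equiv_map (A := Fin a → F) (C := Fin l.sum → F) (W := W 1)
      (by have := h2 0; rw [h0] at this; simpa using this) (by simpa using h3)
    have h4 : ∀ j v, e v ∈ W (j + 1) ↔ e (0, v.2) ∈ W (j + 1) := fun j v => by
      rw [← add_mem_cancel_left (neg_mem (h1 (by omega) (he.le ⟨(v.1, 0), ⟨_, rfl⟩, rfl⟩)))]
      simp [← map_neg, ← map_add, Prod.add_def]
    have h5 : ∀ j, finrank F (W (j + 1)) = a + finrank F ((W (j + 1)).comap (e.toLinearMap ∘ₗ inr F _ _)) :=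
      fun j => by
        have := finrank_range_of_inj (ex_top (1 : End F (Fin a → F)) (y := 1)
          (U := (W (j + 1)).comap (e.toLinearMap ∘ₗ inr F _ _)) (fun _ h => h) 0).inj
        rw [(ex_top 1 (y := 1) (fun _ h => h) 0).range, finrank_prod, finrank_fin_fun] at this
        rw [← this, ← e.finrank_map_eq, Submodule.map_equiv_eq_comap_symm]
        exact congrArg (fun U : Submodule F V => finrank F U) (Submodule.ext fun v => by
          simpa using h4 j (e.symm v))
    rw [List.sum_cons, fl, ip_hall (sup_hI a), ih (W := fun j => (W (j + 1)).comap (e.toLinearMap ∘ₗ inr F _ _))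
      (eq_bot_iff.2 fun c hc => by
        obtain ⟨_, ⟨v, rfl⟩, h⟩ := he.ge hc
        exact (congrArg Prod.snd (e.injective h)).symm)
      (fun i j h => comap_mono (h1 (by omega))) (fun j => by have := h2 (j + 1); rw [h5, h5] at this; simpa
        [add_assoc] using this) (finrank_fin_fun F), ← expect_pw e W fun μ => conj (π μ)]
    refine .trans (expect_congr rfl (g := fun y => 𝔼 x : (End F (Fin a → F))ˣ, 𝔼 Φ,
      conj (π (ty (tri x.1 Φ y.1.1)))) fun y _ => ?_) ?_
    · rw [adj_ty, ← sum_units fun x hx => (sup_hI a _ _ fun e => hx (by rw [e, map_zero, mul_zero])).1,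
        Fintype.expect_eq_sum_div_card, cG, Nat.card_eq_fintype_card, div_eq_inv_mul]
      simp [hI_ty (Units.isUnit _), conj_expect]
    simp only [← expect_product', univ_product_univ]
    refine Fintype.expect_bijective (fun p => ⟨Par.hom (p.2.1, p.2.2, p.1.1), fun j v hv => ?_⟩)
      ⟨fun p q h => ?_, fun g => ?_⟩ _ _ fun _ => ?_
    rotate_right
    · rcases j with _ | j
      · obtain rfl : v = 0 := by simpa [h0] using hv
        simp
      · exact (h4 j _).2 (p.1.2 j _ ((h4 j v).1 hv))
    · have := Par.val_injective (a₁ := (_, _, _)) (a₂ := (_, _, _)) (congrArg (·.1.1) h)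
      exact Prod.ext (Subtype.ext (congrArg (·.2.2) this)) (Prod.ext (congrArg (·.1) this) (congrArg (·.2.1) this))
    · obtain ⟨x, Φ, y, h⟩ := exists_tri (g := g.1.1) fun v hv => by
        obtain ⟨w, hw, h⟩ := he.ge (g.2 1 v (he.le ⟨v, hv, rfl⟩))
        exact e.injective h ▸ hw
      obtain ⟨⟨x, rfl⟩, y, rfl⟩ := isUnit_tri.1 (h ▸ g.1.isUnit)
      exact ⟨(⟨y, fun j c hc => (h4 j (tri x.1 Φ y.1 (0, c))).1 (h ▸ g.2 (j + 1) (0, c) hc)⟩, x, Φ), Subtype.ext (Units.ext h)⟩
    · rfl

theorem fix_eq_fl {n : ℕ} {μ : Fin n → ℕ} (h : ∑ i, μ i = n) (g : GL (Fin n) F) :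
    fixedPointCharacter (parabolicGL n F μ) g = fl F (List.ofFn μ) (ty (Matrix.toLin' g.1)) := by
  classical
  cases nonempty_fintype F
  cases nonempty_fintype (parabolicGL n F μ)
  let T := Matrix.GeneralLinearGroup.toLin (n := Fin n) (R := F)
  have h0 : IsClassFunction _ fun x => fixedPointCharacter (parabolicGL n F μ) (T.symm x) :=
    ((isCharacter_fix (parabolicGL n F μ)).comp T.symm.toMonoidHom).isClassFunction
  have h1 : Sup n (fl F (List.ofFn μ)) := by simpa only [List.sum_ofFn, h] using sup_fl (F := F) (List.ofFn μ)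
  have h2 := h1.sub (sup_lift (χ := fun x => fixedPointCharacter (parabolicGL n F μ) (T.symm x)))
  refine .symm ((sub_eq_zero.1 (congrFun (classInner_self_eq_zero_iff (φ := fun g : (End F (Fin n → F))ˣ =>
    (fl F (List.ofFn μ) - lift fun x => fixedPointCharacter (parabolicGL n F μ) (T.symm x)) (ty g.1)).1 ?_)
      (T g))).trans ((lift_ty h0 _).trans (by simp)))
  rw [← h2.ip_eq, ip_sub, sub_eq_zero]
  generalize fl F _ - lift _ = π
  have h3 := ip_fl (V := Fin n → F) (List.ofFn μ) (W := fun j => Pi.spanSubset F {i | compLabel μ i < j})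
    (eq_bot_iff.2 fun v hv => funext fun i => Pi.mem_spanSubset_iff.1 hv i (by simp))
    (fun i j e v hv => Pi.mem_spanSubset_iff.2 fun k hk => Pi.mem_spanSubset_iff.1 hv k fun e' => hk (e'.trans_le e))
    (fun j => ?_) (by simp [List.sum_ofFn, h]) π
  · rw [List.sum_ofFn, h] at h3
    rw [h3, sup_lift.ip_eq, ← classInner_comp_equiv T]
    simp only [lift_ty h0, MulEquiv.symm_apply_apply]
    rw [funext fun g => (fix_def _ g).trans (indFun_one_eq_card_fixedBy (parabolicGL n F μ) g).symm,
      frobenius_reciprocity _ _ (χ := fun x => π (ty (T x).1)) ((isClassFunction_ty π).comp T.toMonoidHom), classInner,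
      Fintype.expect_eq_sum_div_card, div_eq_inv_mul, ← Nat.card_eq_fintype_card]
    let e := T.toEquiv.subtypeEquiv (p := (· ∈ parabolicGL n F μ)) (q := fun g => ∀ j, ∀ v ∈
      Pi.spanSubset F {i | compLabel μ i < j}, g.1 v ∈ Pi.spanSubset F {i | compLabel μ i < j}) fun g => by
        simp only [Pi.mem_spanSubset_iff]
        refine ⟨fun hg j v hv i hi => show ∑ k, g.1 i k * v k = 0 from sum_eq_zero fun k _ => ?_, fun hg i j e => ?_⟩
        · by_cases e : compLabel μ k < j
          · exact mul_eq_zero_of_left (hg (e.trans_le (not_lt.1 hi))) _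
          · exact mul_eq_zero_of_right _ (hv k e)
        · simpa [T] using hg (compLabel μ j + 1) (Pi.single j 1) (fun k hk => Pi.single_eq_of_ne
            (by rintro rfl; simp at hk) _) i (by simpa)
    exact (congrArg₂ _ (congrArg (fun k : ℕ => (k : ℂ)⁻¹) (Nat.card_congr e))
      (Fintype.sum_equiv e _ _ fun g => one_mul _)).symm
  · rw [Pi.dim_spanSubset, Pi.dim_spanSubset, show {i | compLabel μ i < j + 1} = {i | compLabel μ i < j} ∪
      {i | compLabel μ i = j} from Set.ext fun i => Nat.lt_succ_iff_lt_or_eq, Set.ncard_union_eq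
        (Set.disjoint_left.2 fun i h h' => h.ne h'), add_right_inj, List.getD_eq_getElem?_getD,
        List.getElem?_ofFn]
    split_ifs with e
    · rw [Option.getD_some, ← card_lab h, ← Set.ncard_coe_finset]
      exact congrArg _ (Set.ext fun i => by simp [compLabel_eq h, Fin.ext_iff])
    · exact (Set.ncard_eq_zero).2 (Set.eq_empty_of_forall_notMem fun i hi =>
        e ((show _ = j from hi) ▸ compLabel_eq h i ▸ (lab h i).2))

end Cfsg.Lib.Cusp
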