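import Cfsg.Agent.Lib.Cusp.Flag
import Cfsg.Agent.Lib.GLC.Cyc

/-!
# The values of the Steinberg character of `GL_n` at semisimple elements
-/

set_option autoImplicit false

namespace Cfsg.Lib.Cusp

open Module LinearMap Cfsg.Lib.GLC Polynomial
open Submodule hiding fst snd
open Finset hiding range
open scoped BigOperators

universe u

variable {F : Type u} [Field F] {V C : Type u} [AddCommGroup V] [Module F V] [AddCommGroup C] [Module F C]

theorem map_aeval_apply {f : End F V} {g : End F C} {p : V →ₗ[F] C} (h : ∀ v, p (f v) = g (p v)) (R : F[X])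
    (v : V) : p (aeval f R v) = aeval g R (p v) := by
  induction R using Polynomial.induction_on generalizing v with
  | C a => simp
  | add _ _ h1 h2 => simp [h1, h2]
  | monomial n a ih => simpa [pow_succ, ← mul_assoc, h] using ih (f v)

open Classical in
/-- The Möbius function of the lattice of invariant subspaces of a semisimple endomorphism. -/
noncomputable def moeb (μ : Multiset F[X]) : ℂ :=
  ∏ f ∈ μ.toFinset, (-1) ^ μ.count f * (Nat.card F : ℂ) ^ (f.natDegree * (μ.count f).choose 2)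

open Classical in
theorem moeb_cons (P : F[X]) (μ : Multiset F[X]) :
    moeb (P ::ₘ μ) = -(Nat.card F : ℂ) ^ (P.natDegree * μ.count P) * moeb μ := by
  rw [moeb, moeb, Multiset.toFinset_cons, prod_subset (subset_insert P μ.toFinset) fun f _ hf => by
    simp [Multiset.count_eq_zero_of_notMem (mt Multiset.mem_toFinset.2 hf)],
    ← mul_prod_erase _ _ (mem_insert_self P _), ← mul_prod_erase _ _ (mem_insert_self P _),
    prod_congr rfl fun f hf => by rw [Multiset.count_cons_of_ne (mem_erase.1 hf).1]]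
  simp only [Multiset.count_cons_self, Nat.choose_succ_succ' _ 1, Nat.choose_one_right]
  ring

open Classical in
theorem kd_eq_count [Finite V] {f : End F V} (hf : f.IsSemisimple) {P : F[X]} (h1 : P.Monic)
    (h2 : Irreducible P) : kd f P = P.natDegree * (typ f).count P := by
  rw [(blocks_typ f).kd_eq, Multiset.map_congr rfl (g := fun Q => if Q = P then P.natDegree else 0) fun Q hQ => by
    split_ifs with e
    · rw [e, kd_cyc_of_dvd h1.ne_zero dvd_rfl]
    · exact kd_cyc_of_isCoprime (typ_pp f Q hQ).monic.ne_zero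
        (isCoprime_of_ne (typ_pp f Q hQ).monic (isSemisimple_iff_typ.1 hf Q hQ) h1 h2 e)]
  induction typ f using Multiset.induction_on with
  | empty => simp
  | cons Q μ ih => by_cases e : Q = P <;> simp [e, ih, mul_add, add_comm, Ne.symm]

theorem mapQ_pow_eq_one {f : End F V} {N : ℕ} (h : f ^ N = 1) {W : Submodule F V} (hW : ∀ v ∈ W, f v ∈ W) :
    W.mapQ W f hW ^ N = 1 := W.linearMap_qext (LinearMap.ext fun v => by
  simpa [h] using (map_aeval_apply (p := W.mkQ) (g := W.mapQ W f hW) (fun _ => rfl) (X ^ N) v).symm)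

variable [Finite F] [Finite V] [Finite C] {N : ℕ}

theorem sum_moeb_aux (hN : (N : F) ≠ 0) {z : End F C} (hz : z ^ N = 1) {P : F[X]} (h1 : P.Monic)
    (h2 : Irreducible P) [Finite (AdjoinRoot P)] :
    ∑ W, hterm 1 (fun μ => moeb μ.1) (z.prodMap (cyc P)) W = 0 := by
  classical
  haveI := Fact.mk h2
  choose s hs using fun (W : {W : Submodule F C // ∀ v ∈ W, z v ∈ W}) (c : ker (aeval (W.1.mapQ W.1 z W.2) P)) =>
    show ∃ s : C × AdjoinRoot P →ₗ[F] C ⧸ W.1, ∀ v R, s (v, AdjoinRoot.mk P R) =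
      W.1.mkQ v - aeval (R := F) (A := End F _) (W.1.mapQ W.1 z W.2) R c from
    let ⟨s, hs⟩ := exists_cycMap h1 c.2; ⟨W.1.mkQ.coprod (-s), fun v R => by simp [hs, sub_eq_add_neg]⟩
  have h3 : ∀ W c v, s W c (v, 0) = W.1.mkQ v := fun W c v => by simpa using hs W c v 0
  have h4 : ∀ W c w, W.1.mkQ w = c.1 → s W c (w, 1) = 0 := fun W c w h => by simpa [h] using hs W c w 1
  letI := fun W : {W : Submodule F C // ∀ v ∈ W, z v ∈ W} => Fintype.ofFinite (ker (aeval (W.1.mapQ W.1 z W.2) P))
  rw [← sum_filter_add_sum_filter_not univ (· ≤ range (inl F C (AdjoinRoot P))), sum_filter, sum_filter,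
    ← Fintype.sum_of_injective (fun W : {W : Submodule F C // ∀ v ∈ W, z v ∈ W} => W.1.map (inl F _ _))
      (fun _ _ e => Subtype.ext (map_injective_of_injective inl_injective e))
      (fun W => moeb (P ::ₘ typ (W.1.mapQ W.1 z W.2))) _ (fun W hW => ?_) fun W => ?_,
    ← Fintype.sum_of_injective (fun p : Σ W : {W : Submodule F C // ∀ v ∈ W, z v ∈ W},
      ker (aeval (W.1.mapQ W.1 z W.2) P) => ker (s p.1 p.2)) ?_
      (fun p => moeb (typ (p.1.1.mapQ p.1.1 z p.1.2))) _ (fun W hW => ?_) fun p => ?_,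
    Fintype.sum_sigma, ← sum_add_distrib]
  · refine sum_eq_zero fun W _ => ?_
    change _ + ∑ _y : _, moeb (typ (W.1.mapQ W.1 z W.2)) = 0
    rw [moeb_cons, sum_const, card_univ, ← Nat.card_eq_fintype_card, natCard_eq_pow_finrank (K := F) (V := ker _),
      ← kd_eq_count (isSemisimple_of_pow_eq hN one_ne_zero (by rw [one_smul, mapQ_pow_eq_one hz])) h1 h2]
    rw [kd, nsmul_eq_mul, Nat.cast_pow, neg_mul, neg_add_cancel]
  · rintro ⟨W, c⟩ ⟨W', c'⟩ e
    obtain rfl : W = W' := Subtype.ext (Submodule.ext fun v => by simpa [h3] using SetLike.ext_iff.1 e (v, 0))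
    obtain ⟨w, hw⟩ := W.1.mkQ_surjective c
    have := hs W c' w 1
    rw [map_one, mem_ker.1 (e.le (h4 W c w hw)), map_one, hw, eq_comm, sub_eq_zero] at this
    rw [Subtype.ext this]
  · refine ite_eq_right_iff.2 fun h => hterm_of_not fun h5 => hW ?_
    obtain ⟨v, hv, h6⟩ := SetLike.not_le_iff_exists.1 h
    obtain ⟨R, hR⟩ := AdjoinRoot.mk_surjective v.2⁻¹
    have h7 : ∀ R w, w ∈ W → (aeval z R w.1, AdjoinRoot.mk P R * w.2) ∈ W := fun R w hw => by
      simpa [aeval_prodMap, aeval_cyc, Prod.map] using aeval_apply_smul_mem_of_le_comap hw R _ h5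
    have h8 := h7 R v hv
    rw [hR, inv_mul_cancel₀ fun e => h6 (by simpa [range_inl] using e)] at h8
    generalize aeval z R v.1 = c at h8
    have h9 : ∀ v ∈ W.comap (inl F _ _), z v ∈ W.comap (inl F _ _) := fun v hv => by simpa using h5 _ hv
    have h10 := fun R => map_aeval_apply (p := (W.comap (inl F _ _)).mkQ) (g := mapQ _ _ z h9) (fun _ => rfl) R c
    have h11 := (h10 P).symm.trans ((Quotient.mk_eq_zero _).2 (by simpa using h7 P _ h8))
    refine ⟨⟨⟨_, h9⟩, mkQ _ c, h11⟩, Submodule.ext fun ⟨w, l⟩ => ?_⟩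
    obtain ⟨R, rfl⟩ := AdjoinRoot.mk_surjective l
    rw [mem_ker, hs]
    change _ - aeval (R := F) (A := End F _) (mapQ _ _ z h9) R (mkQ _ c) = 0 ↔ _
    rw [← h10, ← map_sub, mkQ_apply, Quotient.mk_eq_zero, mem_comap, ← add_mem_cancel_right (h7 R _ h8)]
    simp
  · have h5 : ∀ v, s p.1 p.2 (z.prodMap (cyc P) v) = p.1.1.mapQ p.1.1 z p.1.2 (s p.1 p.2 v) := fun ⟨v, l⟩ => by
      obtain ⟨R, rfl⟩ := AdjoinRoot.mk_surjective l
      have := hs p.1 p.2 (z v) (X * R)
      rw [_root_.map_mul, _root_.map_mul, AdjoinRoot.mk_X, aeval_X] at this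
      rw [hs, map_sub]
      exact this
    rw [Ex.hterm (x := (z.prodMap (cyc P)).restrict fun v hv => by rw [mem_ker, h5, mem_ker.1 hv, map_zero])
      ⟨injective_subtype _, fun v => let ⟨w, hw⟩ := p.1.1.mkQ_surjective v; ⟨(w, 0), (h3 ..).trans hw⟩,
      range_subtype _, rfl, fun _ => rfl, h5⟩, if_pos fun h => ?_, Pi.one_apply, one_mul]
    · rfl
    obtain ⟨w, hw⟩ := p.1.1.mkQ_surjective p.2
    simpa [range_inl] using h (h4 _ _ w hw)
  · refine ite_eq_right_iff.2 fun h => hterm_of_not fun h5 =>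
      hW ⟨⟨W.comap (inl F _ _), fun v hv => by simpa using h5 _ hv⟩, map_comap_eq_self h⟩
  · rw [if_pos LinearMap.map_le_range, Ex.hterm (x := z.restrict W.2) (y := (W.1.mapQ W.1 z W.2).prodMap (cyc P))
      (i := inl F _ _ ∘ₗ W.1.subtype) (p := W.1.mkQ.prodMap LinearMap.id) ⟨inl_injective.comp W.1.injective_subtype,
      W.1.mkQ_surjective.prodMap Function.surjective_id, by rw [range_comp, range_subtype], by
        rw [ker_prodMap, ker_mkQ, ker_id, map_inl], fun _ => by simp, fun _ => rfl⟩, Pi.one_apply, one_mul]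
    simp only [ty]
    rw [typ_prodMap, (blocks_cyc h1).typ_eq (by simpa using .of_irreducible h1 h2), add_comm,
      Multiset.singleton_add]

theorem sum_moeb (hN : (N : F) ≠ 0) [Nontrivial V] {f : End F V} (hf : f ^ N = 1) :
    ∑ W, hterm 1 (fun μ => moeb μ.1) f W = 0 := by
  obtain ⟨P, hP⟩ := Multiset.exists_mem_of_ne_zero (typ_ne_zero f)
  obtain ⟨ν, hν⟩ := Multiset.exists_cons_of_mem hP
  have h1 := (typ_pp f P hP).monic
  obtain ⟨z, hz⟩ := exists_blocks_of_finrank (V := Fin (ν.map natDegree).sum → F) (μ := ν)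
    (fun Q hQ => (typ_pp f Q (hν ▸ Multiset.mem_cons_of_mem hQ)).monic) (by simp)
  haveI := h1.finite_adjoinRoot
  haveI := Module.finite_of_finite F (M := AdjoinRoot P)
  rw [← hall_ty, ty_eq_iff.2 ((blocks_typ f).sim (g := z.prodMap (cyc P)) (by
    rw [hν, ← Multiset.singleton_add, add_comm]; exact hz.prodMap (blocks_cyc h1))), hall_ty]
  exact sum_moeb_aux hN (hz.pow_eq_one_iff.2 fun Q hQ => (blocks_typ f).pow_eq_one_iff.1 hf Q
    (hν ▸ Multiset.mem_cons_of_mem hQ)) h1 (isSemisimple_iff_typ.1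
      (isSemisimple_of_pow_eq hN one_ne_zero (by rwa [one_smul])) P hP)

variable (F) in
/-- The alternating sum with the first column shifted by `a`. -/
noncomputable def alt (n a : ℕ) : Ty F → ℂ := ∑ κ : Equiv.Perm (Fin n),
  if ∀ i : Fin n, (κ i : ℕ) ≤ 1 + i then ((Equiv.Perm.sign κ : ℤ) : ℂ) •
    fl F (List.ofFn fun i : Fin n => 1 + i - κ i + if (κ i : ℕ) = 0 then a else 0) else 0

theorem alt_succ (n a : ℕ) :
    alt F (n + 1) a = hall (hI F (a + 1)) (alt F n 0) - if n = 0 then 0 else alt F n (a + 1) := by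
  have h0 : ∀ φ : Ty F → ℂ, hall (hI F 0) φ = φ := fun φ => ext_ty fun m f => by
    rw [hall_ty, sum_eq_single_of_mem ⊥ (mem_univ _) fun W _ hW => by_contra fun e => ?_,
      Ex.hterm (x := (1 : End F PUnit.{u + 1})) (y := f) (i := 0) (p := LinearMap.id) ⟨fun _ _ _ =>
        Subsingleton.elim _ _, Function.surjective_id, range_zero, ker_id, fun _ => by simp, fun _ => rfl⟩,
      hI_ty isUnit_one, if_pos finrank_zero_of_subsingleton, one_mul]
    have h1 : ∀ v ∈ W, f v ∈ W := by_contra fun h => e (hterm_of_not h)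
    rw [hterm, dif_pos h1] at e
    exact hW (finrank_eq_zero.1 (sup_hI 0 _ _ (left_ne_zero_of_mul e)).2)
  rw [alt, ← Equiv.Perm.decomposeFin.symm.sum_comp, Fintype.sum_prod_type, Fin.sum_univ_succ, sub_eq_add_neg]
  congr 1
  · rw [alt]
    refine .trans (sum_congr rfl fun κ _ => ?_) (map_sum (hallL (hI F (a + 1))) _ _).symm
    simp only [Fin.forall_fin_succ, List.ofFn_succ, Equiv.Perm.decomposeFin_symm_apply_zero,
      Equiv.Perm.decomposeFin_symm_apply_succ, Equiv.Perm.decomposeFin.symm_sign, apply_ite (hallL _), map_smul,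
      map_zero]
    simp [fl, hallL, add_comm 1 a, ← add_assoc]
  rcases n with _ | n
  · simp
  rw [if_neg n.succ_ne_zero, Fin.sum_univ_succ, alt, ← sum_neg_distrib, sum_eq_zero (s := univ) (f := fun i : Fin n => _)
    fun i _ => sum_eq_zero fun κ _ => if_neg fun h => by simpa using h 0, add_zero]
  refine sum_congr rfl fun κ _ => ?_
  have h1 : ∀ i : Fin (n + 1), (Equiv.swap 0 (Fin.succ 0) i.succ : ℕ) = if (i : ℕ) = 0 then 0 else (i : ℕ) + 1 :=
    fun i => by cases i using Fin.cases <;> simp [Equiv.swap_apply_def, Fin.ext_iff]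
  rw [List.ofFn_succ]
  simp only [Fin.forall_fin_succ (n := n + 1), Equiv.Perm.decomposeFin_symm_apply_zero, Equiv.Perm.decomposeFin_symm_apply_succ,
    Equiv.Perm.decomposeFin.symm_sign, h1, fl]
  refine (if_congr (and_iff_right (by simp) |>.trans (forall_congr' fun i => ?_)) ?_ neg_zero.symm).trans
    (apply_ite _ _ _ _).symm
  · split_ifs <;> simp only [Fin.val_succ] <;> omega
  · rw [if_neg (Fin.succ_ne_zero _), show 1 + ((0 : Fin (n + 2)) : ℕ) - (Fin.succ (0 : Fin (n + 1)) : ℕ) +
      (if (Fin.succ (0 : Fin (n + 1)) : ℕ) = 0 then a else 0) = 0 by simp, h0, ← neg_smul]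
    congr 3
    · simp
    · ext i
      by_cases h : (κ i : ℕ) = 0 <;> simp only [h, if_true, if_false, Fin.val_succ, Nat.succ_ne_zero] <;> omega

open Classical in
theorem alt_ty (hN : (N : F) ≠ 0) (n : ℕ) : (∀ (V : Type u) [AddCommGroup V] [Module F V] [Finite V]
    (f : End F V), f ^ N = 1 → alt F n 0 (ty f) = if finrank F V = n then (-1) ^ n * moeb (typ f) else 0) ∧
    ∀ (a : ℕ) (V : Type u) [AddCommGroup V] [Module F V] [Finite V] (f : End F V), f ^ N = 1 →
      (if n = 0 then 0 else alt F n a) (ty f) = if finrank F V = n + a then (-1) ^ (n + 1) *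
        ∑ W ∈ filter (fun W : Submodule F V => a < finrank F W) univ, hterm 1 (fun μ => moeb μ.1) f W else 0 := by
  have hN0 : N ≠ 0 := by rintro rfl; simp at hN
  induction n with
  | zero =>
    refine ⟨fun V _ _ _ f hf => ?_, fun a V _ _ _ f _ => ?_⟩
    · rw [alt, Fintype.sum_unique, if_pos (by simp), List.ofFn_zero, fl, Pi.smul_apply,
        hI_ty (.of_pow_eq_one hf hN0)]
      split_ifs with h
      · haveI := finrank_zero_iff.1 h
        simp [blocks_zero.typ_eq, moeb]
      · simp
    · split_ifs with _ h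
      · rw [sum_eq_zero fun W hW => absurd W.finrank_le (by simpa [h] using hW), mul_zero, Pi.zero_apply]
      all_goals simp_all
  | succ n ih =>
    have h1 : ∀ (a : ℕ) (V : Type u) [AddCommGroup V] [Module F V] [Finite V] (f : End F V), f ^ N = 1 →
        alt F (n + 1) a (ty f) = if finrank F V = n + 1 + a then (-1) ^ (n + 1 + 1) *
          ∑ W ∈ filter (fun W : Submodule F V => a < finrank F W) univ, hterm 1 (fun μ => moeb μ.1) f W else 0 := by
      intro a V _ _ _ f hf
      rw [alt_succ, Pi.sub_apply, ih.2 _ _ f hf, hall_ty, sum_congr rfl (g := fun W : Submodule F V => if finrank F V = n + 1 + a then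
        (-1) ^ n * if finrank F W = a + 1 then hterm 1 (fun μ => moeb μ.1) f W else 0 else 0) fun W _ => ?_]
      · rw [add_right_comm n 1 a, add_assoc n a]
        split_ifs
        · simp only [sum_filter, mul_sum, ← sum_sub_distrib]
          refine sum_congr rfl fun W _ => ?_
          split_ifs <;> first | omega | ring
        · simp
      · rw [hterm, hterm]
        by_cases h : ∀ v ∈ W, f v ∈ W
        · obtain ⟨h2, h3⟩ := isUnit_iff_of_exact (x := f.restrict h) (f := f) (y := W.mapQ W f h)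
            W.injective_subtype W.mkQ_surjective (by simp) (fun _ => rfl) fun _ => rfl
          rw [dif_pos h, dif_pos h, hI_ty (h2.1 (.of_pow_eq_one hf hN0)).1, ih.1 _ _ (mapQ_pow_eq_one hf h)]
          split_ifs <;> first | omega | simp [ty]
        · simp [dif_neg h]
    refine ⟨fun V _ _ _ f hf => (h1 0 V f hf).trans (if_ctx_congr Iff.rfl (fun h => ?_) fun _ => rfl),
      fun a V _ _ _ f hf => by rw [if_neg n.succ_ne_zero, h1 a V f hf]⟩
    haveI := nontrivial_of_finrank_pos (show 0 < finrank F V by omega)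
    have h2 := sum_moeb hN hf
    rw [← sum_filter_add_sum_filter_not univ fun W : Submodule F V => 0 < finrank F W,
      sum_eq_single_of_mem (s := filter (fun W : Submodule F V => ¬ 0 < finrank F W) _) ⊥ (by simp)
      fun W hW e => absurd (by simpa using hW) e, Ex.hterm (x := (1 : End F PUnit.{u + 1})) (y := f) (i := 0)
        (p := LinearMap.id) ⟨fun _ _ _ => Subsingleton.elim _ _, Function.surjective_id, range_zero, ker_id,
        fun _ => by simp, fun _ => rfl⟩, Pi.one_apply, one_mul, add_eq_zero_iff_eq_neg] at h2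
    rw [h2, pow_succ]
    simp [ty]

end Cfsg.Lib.Cusp
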